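/-
Elementary facts on sets of odd transpositions: involutions closed under conjugation whose pairwise
products either commute or have odd order.
-/
import Mathlib

set_option autoImplicit false
set_option linter.style.haveILetI false
set_option linter.unusedSectionVars false
set_option linter.unusedVariables false

namespace Cfsg.Agent.OddTrans

variable {G : Type*} [Group G]

/-- The working form of a set of odd transpositions. -/
structure OT (D : Set G) : Prop where
  ne_one : ∀ d ∈ D, d ≠ 1
  inv : ∀ d ∈ D, d * d = 1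
  conj : ∀ d ∈ D, ∀ g : G, g * d * g⁻¹ ∈ D
  pair : ∀ a ∈ D, ∀ b ∈ D, Commute a b ∨ Odd (orderOf (a * b))

lemma inv_of {d : G} (h : d * d = 1) : d⁻¹ = d := inv_eq_of_mul_eq_one_left h

lemma eq_pow_sq {ρ : G} (h : Odd (orderOf ρ)) : ∃ j : ℕ, (ρ ^ 2) ^ j = ρ := by
  obtain ⟨m, hm⟩ := h
  refine ⟨m + 1, ?_⟩
  rw [← pow_mul]
  have : 2 * (m + 1) = orderOf ρ + 1 := by omega
  rw [this, pow_succ, pow_orderOf_eq_one, one_mul]

lemma comm_of_sq {y ρ : G} (h : Odd (orderOf ρ)) (hc : Commute y (ρ ^ 2)) : Commute y ρ := by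
  obtain ⟨j, hj⟩ := eq_pow_sq h
  rw [← hj]; exact hc.pow_right j

lemma eq_one_of_sq {ρ : G} (h : Odd (orderOf ρ)) (hc : ρ ^ 2 = 1) : ρ = 1 := by
  obtain ⟨j, hj⟩ := eq_pow_sq h
  rw [← hj, hc, one_pow]

lemma odd_orderOf_pow {ρ : G} (h : Odd (orderOf ρ)) (n : ℕ) : Odd (orderOf (ρ ^ n)) := by
  exact Odd.of_dvd_nat h (orderOf_pow_dvd n)

/-- Conjugation by a fixed element preserves commuting. -/
lemma comm_cj (t : G) {a b : G} (h : Commute a b) : Commute (t * a * t⁻¹) (t * b * t⁻¹) := by
  have e : ∀ x y : G, (t * x * t⁻¹) * (t * y * t⁻¹) = t * (x * y) * t⁻¹ := by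
    intro x y; group
  show (t * a * t⁻¹) * (t * b * t⁻¹) = (t * b * t⁻¹) * (t * a * t⁻¹)
  rw [e, e, h.eq]

/-- Conjugation by an involution preserves commuting. -/
lemma comm_cj' {p a b : G} (hp : p * p = 1) (h : Commute a b) :
    Commute (p * a * p) (p * b * p) := by
  have := comm_cj p h
  rwa [inv_of hp] at this

/-- An element commuting with `p` and `a` commutes with `p * a * p`. -/
lemma comm_cj_of {y p a : G} (h1 : Commute y p) (h2 : Commute y a) : Commute y (p * a * p) :=
  (h1.mul_right h2).mul_right h1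

section
variable {D : Set G}

lemma OT.cj (hD : OT D) {p d : G} (hp : p * p = 1) (hd : d ∈ D) : p * d * p ∈ D := by
  have := hD.conj d hd p
  rwa [inv_of hp] at this

lemma OT.core (hD : OT D) {a b z ρ : G} (ha : a ∈ D) (hb : b ∈ D) (h : a * b = z * ρ)
    (hc : Commute z ρ) (hz : z * z = 1) (hz1 : z ≠ 1) (hρ : Odd (orderOf ρ)) : ρ = 1 := by
  rcases hD.pair a ha b hb with hab | hab
  · have h1 : (a * b) ^ 2 = 1 := by
      rw [hab.mul_pow, sq, sq, hD.inv a ha, hD.inv b hb, one_mul]
    rw [h, hc.mul_pow, sq z, hz, one_mul] at h1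
    exact eq_one_of_sq hρ h1
  · exfalso
    have hz2 : orderOf z = 2 := orderOf_eq_prime (by rw [sq]; exact hz) hz1
    have hpow : (z * ρ) ^ orderOf ρ = z := by
      obtain ⟨m, hm⟩ := hρ
      rw [hc.mul_pow, pow_orderOf_eq_one, mul_one, hm, pow_succ, pow_mul, sq z, hz, one_pow, one_mul]
    have hdvd : orderOf z ∣ orderOf (z * ρ) := by
      conv_lhs => rw [← hpow]
      exact orderOf_pow_dvd _
    rw [h] at hab
    rw [hz2] at hdvd
    exact (Nat.not_even_iff_odd.mpr hab) (even_iff_two_dvd.mpr hdvd)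

lemma OT.eq_of_mul_eq_one (hD : OT D) {g c : G} (hc : c ∈ D) (h : g * c = 1) : g = c := by
  have := eq_inv_of_mul_eq_one_left h
  rwa [inv_of (hD.inv c hc)] at this

lemma mul_inv_of_comm {c d : G} (hc : c * c = 1) (hd : d * d = 1) (hcd : Commute c d) :
    (c * d) * (c * d) = 1 := by
  calc (c * d) * (c * d) = c * (d * c) * d := by group
    _ = c * (c * d) * d := by rw [hcd.eq]
    _ = (c * c) * (d * d) := by group
    _ = 1 := by rw [hc, hd, one_mul]

/-- T1: a member commuting with the product of two different commuting members commutes with each. -/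
lemma OT.comm_left_of_comm_mul (hD : OT D) {g c d : G} (hg : g ∈ D) (hc : c ∈ D) (hd : d ∈ D)
    (hcd : Commute c d) (hne : c ≠ d) (h : Commute g (c * d)) : Commute g c := by
  rcases hD.pair g hg c hc with h1 | h1
  · exact h1
  · have hinvd : d * d = 1 := hD.inv d hd
    have hinvc : c * c = 1 := hD.inv c hc
    have hcc : Commute (c * d) c := (Commute.refl c).mul_left hcd.symm
    have key : g * c = 1 := by
      refine hD.core (a := g) (b := d) (z := c * d) (ρ := g * c) hg hd ?_ ?_ ?_ ?_ h1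
      · have h3 : c * d * c = d := by rw [hcd.eq, mul_assoc, hinvc, mul_one]
        calc g * d = g * (c * d * c) := by rw [h3]
          _ = (g * (c * d)) * c := by group
          _ = ((c * d) * g) * c := by rw [h.eq]
          _ = c * d * (g * c) := by group
      · exact (h.symm).mul_right hcc
      · exact mul_inv_of_comm hinvc hinvd hcd
      · intro h0
        apply hne
        exact hD.eq_of_mul_eq_one hd h0
    rw [hD.eq_of_mul_eq_one hc key]

lemma OT.comm_right_of_comm_mul (hD : OT D) {g c d : G} (hg : g ∈ D) (hc : c ∈ D) (hd : d ∈ D)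
    (hcd : Commute c d) (hne : c ≠ d) (h : Commute g (c * d)) : Commute g d := by
  refine hD.comm_left_of_comm_mul hg hd hc hcd.symm hne.symm ?_
  rwa [← hcd.eq]

/-- Twin lemma: if `g, h, g * h ∈ D` commute and `c ∈ D` commutes with `g`, then `c` commutes with `h`. -/
lemma OT.twin_comm (hD : OT D) {c g h : G} (hc : c ∈ D) (hg : g ∈ D) (hh : h ∈ D)
    (hgh : Commute g h) (hm : g * h ∈ D) (hcg : Commute c g) : Commute c h := by
  rcases hD.pair c hc h hh with h1 | h1
  · exact h1
  · have key : c * h = 1 := by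
      refine hD.core (a := c) (b := g * h) (z := g) (ρ := c * h) hc hm ?_ ?_ (hD.inv g hg)
        (hD.ne_one g hg) h1
      · calc c * (g * h) = (c * g) * h := by group
          _ = (g * c) * h := by rw [hcg.eq]
          _ = g * (c * h) := by group
      · exact hcg.symm.mul_right hgh
    rw [hD.eq_of_mul_eq_one hh key]

/-- T3: a member commuting with an odd rotation `c * d` commutes with `c`. -/
lemma OT.comm_of_rot (hD : OT D) {x c d : G} (hx : x ∈ D) (hc : c ∈ D) (hd : d ∈ D)
    (h : Commute x (c * d)) (hodd : Odd (orderOf (c * d))) (hne : c * d ≠ 1) : Commute x c := by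
  rcases hD.pair x hx c hc with h1 | h1
  · exact h1
  · exfalso
    apply hne
    have hic := hD.inv c hc
    have hid := hD.inv d hd
    -- `c x c` commutes with the rotation
    have h2 : Commute (c * x * c) (c * d) := by
      have h3 := comm_cj' hic h
      have h4 : c * (c * d) * c = (c * d)⁻¹ := by
        rw [mul_inv_rev, inv_of hic, inv_of hid, ← mul_assoc, hic, one_mul]
      rw [h4] at h3
      exact (Commute.inv_right_iff).mp h3
    have h5 : Commute (c * d) ((x * c) ^ 2) := by
      have : (x * c) ^ 2 = x * (c * x * c) := by rw [sq]; group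
      rw [this]
      exact (h.symm).mul_right h2.symm
    have h6 : Commute (c * d) (x * c) := comm_of_sq h1 h5
    have h7 : Commute (c * d) c := by
      have h8 := (h.symm).mul_right h6
      rwa [← mul_assoc, hD.inv x hx, one_mul] at h8
    refine eq_one_of_sq hodd ?_
    have h9 : (c * d) * c = d := by rw [h7.eq, ← mul_assoc, hic, one_mul]
    calc (c * d) ^ 2 = (c * d) * c * d := by rw [sq]; group
      _ = 1 := by rw [h9, hid]

/-- If `c` commutes with its conjugate by `d` (both members) then `c` commutes with `d`. -/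
lemma OT.tan_comm (hD : OT D) {c d : G} (hc : c ∈ D) (hd : d ∈ D) (h : Commute c (d * c * d)) :
    Commute c d := by
  rcases hD.pair c hc d hd with h1 | h1
  · exact h1
  · have hic := hD.inv c hc
    have hid := hD.inv d hd
    have h2 : (c * d) ^ 2 = c * (d * c * d) := by rw [sq]; group
    have h3 : ((c * d) ^ 2) ^ 2 = 1 := by
      rw [h2, h.mul_pow, sq c, hic, one_mul, sq]
      calc (d * c * d) * (d * c * d) = d * c * (d * d) * c * d := by group
        _ = d * (c * c) * d := by rw [hid]; group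
        _ = 1 := by rw [hic, mul_one, hid]
    have h4 := eq_one_of_sq (odd_orderOf_pow h1 2) h3
    have h5 := eq_one_of_sq h1 h4
    rw [hD.eq_of_mul_eq_one hd h5]

/-- Tangent lemma. -/
lemma OT.tangent (hD : OT D) {x r p q : G} (hx : x ∈ D) (hr : r ∈ D) (hp : p * p = 1) (hq : q * q = 1)
    (hpq : Commute p q) (hpqr : p * q = r) (h1 : Commute x (p * x * p)) (h2 : Commute x (q * x * q)) :
    Commute x r := by
  rcases hD.pair x hx r hr with h3 | h3
  · exact h3
  · have hir : r * r = 1 := hD.inv r hr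
    -- `x₁ = p x p`, `x₃ = r x r`
    have hx3 : r * x * r = p * (q * x * q) * p := by
      rw [← hpqr]
      calc (p * q) * x * (p * q) = p * q * x * (q * p) := by rw [hpq.eq]
        _ = p * (q * x * q) * p := by group
    have h4 : Commute (p * x * p) (r * x * r) := by
      rw [hx3]; exact comm_cj' hp h2
    have h5 : Commute (p * x * p) ((x * r) ^ 2) := by
      have : (x * r) ^ 2 = x * (r * x * r) := by rw [sq]; group
      rw [this]; exact h1.symm.mul_right h4
    have h6 : Commute (p * x * p) (x * r) := comm_of_sq h3 h5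
    have h7 : Commute (p * x * p) r := by
      have h8 := h1.symm.mul_right h6
      rwa [← mul_assoc, hD.inv x hx, one_mul] at h8
    have h8 := comm_cj' hp h7
    have h9 : p * (p * x * p) * p = x := by
      calc p * (p * x * p) * p = (p * p) * x * (p * p) := by group
        _ = x := by rw [hp, one_mul, mul_one]
    have h10 : p * r * p = r := by
      have hc : Commute p r := by
        rw [← hpqr]; exact (Commute.refl p).mul_right hpq
      rw [hc.eq, mul_assoc, hp, mul_one]
    rwa [h9, h10] at h8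

lemma OT.mem_of_odd (hD : OT D) {f d : G} (hf : f * f = 1) (hd : d ∈ D)
    (h : Odd (orderOf (f * d))) : f ∈ D := by
  obtain ⟨j, hj⟩ := eq_pow_sq h
  have hid := hD.inv d hd
  set ρ := f * d with hρ
  have hinv : ρ⁻¹ = d * f := by rw [hρ, mul_inv_rev, inv_of hid, inv_of hf]
  have hs : SemiconjBy d ρ⁻¹ ρ := by
    show d * ρ⁻¹ = ρ * d
    rw [hinv, ← mul_assoc, hid, one_mul, hρ, mul_assoc, hid, mul_one]
  have h1 : d * (ρ⁻¹) ^ j = ρ ^ j * d := (hs.pow_right j).eq
  have h2 : ρ ^ j * d * (ρ ^ j)⁻¹ = f := by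
    rw [← inv_pow, mul_assoc, h1, ← mul_assoc, ← pow_add]
    have : ρ ^ (j + j) = ρ := by
      have h3 : j + j = 2 * j := by ring
      rw [h3, pow_mul, hj]
    rw [this, hρ, mul_assoc, hid, mul_one]
  rw [← h2]
  exact hD.conj d hd _

/-- The reflection swapping `a` and `x` in the dihedral group they generate. -/
lemma OT.swap (hD : OT D) {a x : G} (ha : a ∈ D) (hx : x ∈ D) (h : Odd (orderOf (x * a))) :
    ∃ w ∈ D, w * a * w = x ∧ w * w = 1 ∧ ∀ y, Commute y a → Commute y x → Commute y w := by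
  obtain ⟨j, hj⟩ := eq_pow_sq h
  have hia := hD.inv a ha
  have hix := hD.inv x hx
  set ρ := x * a with hρ
  have hinv : ρ⁻¹ = a * x := by rw [hρ, mul_inv_rev, inv_of hia, inv_of hix]
  have hs : SemiconjBy a ρ ρ⁻¹ := by
    show a * ρ = ρ⁻¹ * a
    rw [hinv, hρ]; group
  have h1 : a * ρ ^ j = (ρ⁻¹) ^ j * a := (hs.pow_right j).eq
  have hjj : ρ ^ j * ρ ^ j = ρ := by
    rw [← pow_add]
    have : j + j = 2 * j := by ring
    rw [this, pow_mul, hj]
  have hww : (ρ ^ j * a) * (ρ ^ j * a) = 1 := by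
    calc (ρ ^ j * a) * (ρ ^ j * a) = ρ ^ j * (a * ρ ^ j) * a := by group
      _ = ρ ^ j * ((ρ⁻¹) ^ j * a) * a := by rw [h1]
      _ = (ρ ^ j * (ρ⁻¹) ^ j) * (a * a) := by group
      _ = 1 := by rw [hia, inv_pow, mul_inv_cancel, one_mul]
  refine ⟨ρ ^ j * a, ?_, ?_, hww, ?_⟩
  · refine hD.mem_of_odd hww ha ?_
    have : ρ ^ j * a * a = ρ ^ j := by rw [mul_assoc, hia, mul_one]
    rw [this]
    exact odd_orderOf_pow h j
  · calc ρ ^ j * a * a * (ρ ^ j * a) = ρ ^ j * (a * a) * (ρ ^ j * a) := by group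
      _ = (ρ ^ j * ρ ^ j) * a := by rw [hia]; group
      _ = x := by rw [hjj, hρ, mul_assoc, hia, mul_one]
  · intro y h1 h2
    exact (Commute.pow_right (h2.mul_right h1) j).mul_right h1

/-- The trichotomy for an involution `p` and a member `d`. -/
lemma OT.tri [Finite G] (hD : OT D) {p d : G} (hp : p * p = 1) (hd : d ∈ D) :
    Commute d (p * d * p) ∨ p ∈ D ∨
      ∃ σ : G, σ * σ = 1 ∧ σ ≠ 1 ∧ p * σ ∈ D ∧ Commute σ p ∧ Commute σ d ∧
        (∀ y, Commute y p → Commute y d → Commute y σ) ∧ ¬ Commute d (p * d * p) := by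
  by_cases hcom : Commute d (p * d * p)
  · exact Or.inl hcom
  right
  have hd' : p * d * p ∈ D := hD.cj hp hd
  have hid := hD.inv d hd
  set ρ := p * d with hρ
  have hsq : (p * d * p) * d = ρ ^ 2 := by rw [hρ, sq]; group
  have hodd : Odd (orderOf (ρ ^ 2)) := by
    rcases hD.pair (p * d * p) hd' d hd with h1 | h1
    · exact absurd h1.symm hcom
    · rwa [hsq] at h1
  rcases Nat.even_or_odd (orderOf ρ) with hk | hk
  · right
    obtain ⟨n, hn⟩ := hk
    have hpos : 0 < orderOf ρ := orderOf_pos ρ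
    have hord : orderOf (ρ ^ 2) = n := by
      rw [orderOf_pow' ρ (by norm_num : (2 : ℕ) ≠ 0), hn]
      have : Nat.gcd (n + n) 2 = 2 := by
        have : n + n = 2 * n := by ring
        rw [this]; exact Nat.gcd_mul_right_left n 2
      rw [this]; omega
    have hnodd : Odd n := by rwa [hord] at hodd
    have hn0 : n ≠ 0 := by rintro rfl; simp at hnodd
    have hσσ : ρ ^ n * ρ ^ n = 1 := by rw [← pow_add, ← hn, pow_orderOf_eq_one]
    have hσinv : (ρ ^ n)⁻¹ = ρ ^ n := inv_of hσσ
    have hσ1 : ρ ^ n ≠ 1 := pow_ne_one_of_lt_orderOf hn0 (by omega)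
    have hinv : ρ⁻¹ = d * p := by rw [hρ, mul_inv_rev, inv_of hid, inv_of hp]
    have hcp : Commute (ρ ^ n) p := by
      have hs : SemiconjBy p ρ ρ⁻¹ := by
        show p * ρ = ρ⁻¹ * p
        rw [hinv, hρ, ← mul_assoc, hp, one_mul, mul_assoc, hp, mul_one]
      have h1 := (hs.pow_right n).eq
      rw [inv_pow, hσinv] at h1
      exact h1.symm
    have hcd : Commute (ρ ^ n) d := by
      have hs : SemiconjBy d ρ ρ⁻¹ := by
        show d * ρ = ρ⁻¹ * d
        rw [hinv, hρ]; group
      have h1 := (hs.pow_right n).eq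
      rw [inv_pow, hσinv] at h1
      exact h1.symm
    refine ⟨ρ ^ n, hσσ, hσ1, ?_, hcp, hcd, ?_, hcom⟩
    · -- `p * σ ∈ D`
      have hff : (p * ρ ^ n) * (p * ρ ^ n) = 1 := mul_inv_of_comm hp hσσ hcp.symm
      refine hD.mem_of_odd hff hd ?_
      have h1 : p * ρ ^ n * d = ρ ^ (n + 1) := by
        rw [pow_succ, ← hcp.eq, mul_assoc, hρ]
      rw [h1]
      obtain ⟨r, hr⟩ := hnodd
      have : ρ ^ (n + 1) = (ρ ^ 2) ^ (r + 1) := by
        rw [← pow_mul]; congr 1; omega
      rw [this]
      exact odd_orderOf_pow hodd _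
    · intro y h1 h2
      exact (h1.mul_right h2).pow_right n
  · left
    exact hD.mem_of_odd hp hd hk

end

end Cfsg.Agent.OddTrans
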