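/-
S1617, LEMMA Z: a set `M` of involutions, closed under conjugation by its own members, any two
distinct members with product of odd prime order `p`, has `p`-power cardinality.
Proof: `Q = ⟨M⟩`, `M = d^Q`, `d` isolated, Z*: `[d,Q] ≤ N` odd normal. `M = d^N`. A prime `q ≠ p`: a `d`-invariant
Sylow `q` subgroup `S` of `N`: for `g ∈ S`, `d·(g d g⁻¹) ∈ S` is a `q`-element of order `1` or `p`, so `g` commutes with `d`.
-/
import Cfsg.Agent.S0215
import Cfsg.Agent.Lib.Coprime.Action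

set_option autoImplicit false
set_option linter.unusedSectionVars false
set_option linter.unusedVariables false

namespace Cfsg.Agent.Lib.OddTrans.LemmaZ

open Subgroup

variable {G : Type*} [Group G]

lemma dih_gen {d ρ : G} (hd : d * d = 1) (hρ : d * ρ * d = ρ⁻¹) (i : ℕ) :
    ρ ^ i * d * (ρ ^ i)⁻¹ = ρ ^ (2 * i) * d := by
  have hdi : d⁻¹ = d := inv_eq_of_mul_eq_one_left hd
  have h1 : d * ρ ^ i * d = (ρ⁻¹) ^ i := by
    have := conj_pow (a := d) (b := ρ) (i := i)
    rw [hdi, hρ] at this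
    exact this.symm
  have h3 : d * (ρ ^ i)⁻¹ * d = ρ ^ i := by
    have h4 : (d * ρ ^ i * d)⁻¹ = d * (ρ ^ i)⁻¹ * d := by
      simp only [mul_inv_rev, hdi, mul_assoc]
    rw [← h4, h1, inv_pow, inv_inv]
  calc ρ ^ i * d * (ρ ^ i)⁻¹
      = ρ ^ i * (d * (ρ ^ i)⁻¹ * d) * d := by
        simp only [mul_assoc, hd, mul_one]
    _ = ρ ^ i * ρ ^ i * d := by rw [h3]
    _ = ρ ^ (2 * i) * d := by rw [two_mul, pow_add]

lemma dih_conj {d a : G} (hd : d * d = 1) (ha : a * a = 1) (i : ℕ) :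
    (d * a) ^ i * d * ((d * a) ^ i)⁻¹ = (d * a) ^ (2 * i) * d := by
  have hdi : d⁻¹ = d := inv_eq_of_mul_eq_one_left hd
  have hai : a⁻¹ = a := inv_eq_of_mul_eq_one_left ha
  refine dih_gen hd ?_ i
  rw [mul_inv_rev, hdi, hai, ← mul_assoc, hd, one_mul]

lemma dih_conj' {d a : G} (hd : d * d = 1) (ha : a * a = 1) (i : ℕ) :
    (a * d) ^ i * d * ((a * d) ^ i)⁻¹ = (a * d) ^ (2 * i) * d := by
  have hdi : d⁻¹ = d := inv_eq_of_mul_eq_one_left hd
  have hai : a⁻¹ = a := inv_eq_of_mul_eq_one_left ha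
  refine dih_gen hd ?_ i
  rw [mul_inv_rev, hdi, hai, mul_assoc, mul_assoc, hd, mul_one]

theorem aux [Finite G] {p : ℕ} (hp : p.Prime) (hp2 : p ≠ 2) (M : Set G) {d : G} (hdM : d ∈ M)
    (hinv : ∀ a ∈ M, a ≠ 1 ∧ a * a = 1) (hcl : ∀ a ∈ M, ∀ b ∈ M, a * b * a ∈ M)
    (hord : ∀ a ∈ M, ∀ b ∈ M, a ≠ b → orderOf (a * b) = p) (hgen : closure M = ⊤) :
    ∃ k : ℕ, Nat.card M = p ^ k := by
  classical
  have hdd := (hinv d hdM).2
  have hdi : d⁻¹ = d := inv_eq_of_mul_eq_one_left hdd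
  -- step 1: invariance
  have hconj2 : ∀ g : G, ∀ a ∈ M, g * a * g⁻¹ ∈ M ∧ g⁻¹ * a * g ∈ M := by
    intro g
    have hg : g ∈ closure M := by rw [hgen]; exact mem_top g
    induction hg using Subgroup.closure_induction with
    | mem x hx =>
      intro a ha
      have hxi : x⁻¹ = x := inv_eq_of_mul_eq_one_left (hinv x hx).2
      rw [hxi]
      exact ⟨hcl x hx a ha, hcl x hx a ha⟩
    | one => intro a ha; simpa using ha
    | mul x y _ _ hx hy =>
      intro a ha
      constructor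
      · have := (hx _ (hy a ha).1).1
        have e : x * y * a * (x * y)⁻¹ = x * (y * a * y⁻¹) * x⁻¹ := by group
        rw [e]; exact this
      · have := (hy _ (hx a ha).2).2
        have e : (x * y)⁻¹ * a * (x * y) = y⁻¹ * (x⁻¹ * a * x) * y := by group
        rw [e]; exact this
    | inv x _ hx =>
      intro a ha
      have := hx a ha
      simpa using this.symm
  have hconj : ∀ g : G, ∀ a ∈ M, g * a * g⁻¹ ∈ M := fun g a ha => (hconj2 g a ha).1
  -- step 2: transitivity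
  have htrans : ∀ a ∈ M, ∃ g : G, g * d * g⁻¹ = a := by
    intro a ha
    by_cases hda : d = a
    · exact ⟨1, by simp [hda]⟩
    · refine ⟨(d * a) ^ ((p - 1) / 2), ?_⟩
      have haa := (hinv a ha).2
      rw [dih_conj hdd haa]
      have hodd : p % 2 = 1 := (hp.eq_two_or_odd).resolve_left hp2
      have h2 : 2 * ((p - 1) / 2) = p - 1 := by omega
      rw [h2]
      have hρ : (d * a) ^ p = 1 := by rw [← hord d hdM a ha hda]; exact pow_orderOf_eq_one _
      have h3 : (d * a) ^ (p - 1) = (d * a)⁻¹ := by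
        apply eq_inv_of_mul_eq_one_left
        rw [← pow_succ, Nat.sub_add_cancel hp.pos, hρ]
      rw [h3]
      have hai : a⁻¹ = a := inv_eq_of_mul_eq_one_left haa
      rw [mul_inv_rev, hai, hdi, mul_assoc, hdd, mul_one]
  -- step 3: Z*
  have h2order : ∀ x : G, ∀ P : Sylow 2 G, x ∈ (P : Subgroup G) → ¬ p ∣ orderOf x := by
    intro x P hx hdvd
    obtain ⟨n, hn⟩ := P.isPGroup' ⟨x, hx⟩
    have h1 : x ^ 2 ^ n = 1 := by
      have := congrArg Subtype.val hn
      simpa using this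
    have h2 : orderOf x ∣ 2 ^ n := orderOf_dvd_of_pow_eq_one h1
    have h3 : p ∣ 2 := hp.dvd_of_dvd_pow (hdvd.trans h2)
    exact hp2 ((Nat.prime_dvd_prime_iff_eq hp Nat.prime_two).mp h3)
  have hdo : orderOf d = 2 := orderOf_eq_prime (by rw [sq]; exact hdd) (hinv d hdM).1
  have hd2 : IsPGroup 2 (zpowers d) := by
    rw [IsPGroup.iff_card, Nat.card_zpowers, hdo]
    exact ⟨1, by norm_num⟩
  obtain ⟨P, hP⟩ := hd2.exists_le_sylow
  have hdP : d ∈ (P : Subgroup G) := hP (mem_zpowers d)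
  obtain ⟨N, hNn, hNodd, hNc⟩ := Cfsg.Agent.S0215.result P d hdo hdP (by
    intro g hg
    by_contra hne
    have hgM := hconj g d hdM
    have := hord d hdM _ hgM (Ne.symm hne)
    apply h2order (d * (g * d * g⁻¹)) P ((P : Subgroup G).mul_mem hdP hg)
    rw [this])
  haveI := hNn
  -- step 4: `a ∈ M` is `n d n⁻¹`
  have hNorb : ∀ a ∈ M, ∃ n ∈ N, n * d * n⁻¹ = a := by
    intro a ha
    obtain ⟨g, hg⟩ := htrans a ha
    have haa := (hinv a ha).2
    have hai : a⁻¹ = a := inv_eq_of_mul_eq_one_left haa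
    have hν : a * d ∈ N := by
      have h1 := N.inv_mem (hNc g)
      have h2 : (d * g * d⁻¹ * g⁻¹)⁻¹ = a * d := by
        rw [← hg]
        simp only [mul_inv_rev, inv_inv, hdi]
        group
      rwa [h2] at h1
    have hoddν : Odd (orderOf (a * d)) := by
      have h1 : orderOf (a * d) ∣ Nat.card N := by
        have := Subgroup.orderOf_dvd_natCard N hν
        exact this
      exact Odd.of_dvd_nat hNodd h1
    obtain ⟨m, hm⟩ := hoddν
    refine ⟨(a * d) ^ (m + 1), N.pow_mem hν _, ?_⟩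
    rw [dih_conj' hdd haa (m + 1)]
    have h2 : 2 * (m + 1) = orderOf (a * d) + 1 := by omega
    rw [h2, pow_succ, pow_orderOf_eq_one, one_mul, mul_assoc, hdd, mul_one]
  -- step 5: the orbit
  letI act : MulAction (↥N) G := MulAction.compHom G ((MulAut.conj : G →* MulAut G).comp N.subtype)
  have hsm : ∀ (n : N) (x : G), n • x = (n : G) * x * (n : G)⁻¹ := fun n x => rfl
  have horb : MulAction.orbit (↥N) d = M := by
    ext a
    constructor
    · rintro ⟨n, rfl⟩
      exact hconj _ _ hdM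
    · intro ha
      obtain ⟨n, hn, hna⟩ := hNorb a ha
      exact ⟨⟨n, hn⟩, hna⟩
  have hidx : (MulAction.stabilizer (↥N) d).index = Nat.card M := by
    rw [MulAction.index_stabilizer, horb]
    rfl
  -- step 6: primes
  have hM0 : Nat.card M ≠ 0 := by
    rw [← hidx]
    exact Subgroup.index_ne_zero_of_finite
  have hprime : ∀ {q : ℕ}, q.Prime → q ∣ Nat.card M → q = p := by
    intro q hq hqM
    by_contra hqp
    haveI : Fact q.Prime := ⟨hq⟩
    have hcop : (Nat.card (zpowers d)).Coprime (Nat.card N) := by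
      rw [Nat.card_zpowers, hdo]
      exact (Nat.coprime_two_left).mpr hNodd
    have hAK : zpowers d ≤ normalizer (N : Set G) := by
      rw [Subgroup.normalizer_eq_top]
      exact le_top
    obtain ⟨Q, ⟨hQN, hQq, hQi⟩, hQA⟩ := Cfsg.Agent.Lib.Coprime.Action.exists_invariant_sylowIn (p := q)
      hAK hcop (Or.inl inferInstance)
    have hdQ : d ∈ normalizer (Q : Set G) := hQA (mem_zpowers d)
    have hfix : ∀ g ∈ Q, g * d * g⁻¹ = d := by
      intro g hg
      by_contra hne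
      have hx := hconj g d hdM
      have hor := hord d hdM _ hx (Ne.symm hne)
      have hmem : d * (g * d * g⁻¹) ∈ Q := by
        have h1 : d * g * d⁻¹ ∈ Q := (mem_normalizer_iff.mp hdQ g).mp hg
        have e : d * (g * d * g⁻¹) = (d * g * d⁻¹) * g⁻¹ := by
          rw [hdi]; group
        rw [e]
        exact Q.mul_mem h1 (Q.inv_mem hg)
      obtain ⟨n, hn⟩ := hQq ⟨_, hmem⟩
      have h1 : (d * (g * d * g⁻¹)) ^ q ^ n = 1 := by
        have := congrArg Subtype.val hn
        simpa using this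
      have h2 := orderOf_dvd_of_pow_eq_one h1
      rw [hor] at h2
      exact hqp ((Nat.prime_dvd_prime_iff_eq hp hq).mp (hp.dvd_of_dvd_pow h2)).symm
    have hle : Q.subgroupOf N ≤ MulAction.stabilizer (↥N) d := by
      intro g hg
      rw [MulAction.mem_stabilizer_iff, hsm]
      exact hfix _ (Subgroup.mem_subgroupOf.mp hg)
    apply hQi
    have h3 := Subgroup.index_dvd_of_le hle
    rw [hidx] at h3
    exact hqM.trans h3
  exact ⟨_, Nat.eq_prime_pow_of_unique_prime_dvd hM0 hprime⟩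

/-- **Lemma Z.** -/
theorem card_eq_prime_pow [Finite G] {p : ℕ} (hp : p.Prime) (hp2 : p ≠ 2) (M : Set G) (hne : M.Nonempty)
    (hinv : ∀ a ∈ M, a ≠ 1 ∧ a * a = 1) (hcl : ∀ a ∈ M, ∀ b ∈ M, a * b * a ∈ M)
    (hord : ∀ a ∈ M, ∀ b ∈ M, a ≠ b → orderOf (a * b) = p) :
    ∃ k : ℕ, Nat.card M = p ^ k := by
  obtain ⟨d, hd⟩ := hne
  set Q := closure M with hQ
  have hMQ : ∀ a ∈ M, a ∈ Q := fun a ha => subset_closure ha
  let M' : Set Q := Subtype.val ⁻¹' M
  have hgen : closure M' = ⊤ := Subgroup.closure_closure_coe_preimage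
  obtain ⟨k, hk⟩ := aux hp hp2 M' (d := ⟨d, hMQ d hd⟩) hd
    (fun a ha => ⟨fun h => (hinv _ ha).1 (by rw [h]; rfl), Subtype.ext (hinv _ ha).2⟩)
    (fun a ha b hb => hcl _ ha _ hb)
    (fun a ha b hb hab => by
      have := hord _ ha _ hb (fun h => hab (Subtype.ext h))
      rw [← this, ← Subgroup.orderOf_coe]
      rfl)
    hgen
  refine ⟨k, ?_⟩
  rw [← hk]
  symm
  refine Nat.card_congr ⟨fun x => ⟨x.1.1, x.2⟩, fun x => ⟨⟨x.1, hMQ _ x.2⟩, x.2⟩, fun x => rfl, fun x => rfl⟩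

end Cfsg.Agent.Lib.OddTrans.LemmaZ
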