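/-
Odd transpositions with twins: if the commuting graph is connected then any two members have a
common commuting member.
-/
import Cfsg.Agent.Lib.OddTrans.Basic

set_option autoImplicit false
set_option linter.style.haveILetI false
set_option linter.unusedSectionVars false
set_option linter.unusedVariables false

namespace Cfsg.Agent.OddTrans

variable {G : Type*} [Group G] {D : Set G}

/-- The configuration of a far pair `e, x` with the central involution `e a f`. -/
structure Ctx (D : Set G) (e f a a' x b t : G) : Prop where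
  ot : OT D
  he : e ∈ D
  hf : f ∈ D
  ha : a ∈ D
  ha' : a' ∈ D
  hx : x ∈ D
  hb : b ∈ D
  haa' : a * a' ∈ D
  cea : Commute e a
  cef : Commute e f
  caf : Commute a f
  caa' : Commute a a'
  nef : e ≠ f
  naf : a ≠ f
  naa' : a ≠ a'
  far : ∀ c ∈ D, Commute c e → Commute c x → False
  ctx : Commute (e * a * f) x
  same : ∀ c ∈ D, Commute c a → Commute c a'
  same' : ∀ c ∈ D, Commute c a' → Commute c a
  nax : ¬ Commute a x
  cba : Commute b a
  cbx : Commute b x
  tconj : t * a * t⁻¹ = a'
  tfix : ∀ y, Commute y a → Commute y a' → Commute y x → Commute y t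
  todd : Odd (orderOf t)

section
variable {e f a a' x b t : G}

lemma Ctx.ie (C : Ctx D e f a a' x b t) : e * e = 1 := C.ot.inv e C.he
lemma Ctx.if_ (C : Ctx D e f a a' x b t) : f * f = 1 := C.ot.inv f C.hf
lemma Ctx.ia (C : Ctx D e f a a' x b t) : a * a = 1 := C.ot.inv a C.ha

lemma Ctx.tau_mul_a (C : Ctx D e f a a' x b t) : e * a * f * a = e * f := by
  calc e * a * f * a = e * (a * f) * a := by group
    _ = e * (f * a) * a := by rw [C.caf.eq]
    _ = e * f * (a * a) := by group
    _ = e * f := by rw [C.ia, mul_one]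

/-- Commuting with `τ` and `a` gives commuting with `e` and `f`. -/
lemma Ctx.O (C : Ctx D e f a a' x b t) {d : G} (hd : d ∈ D) (h1 : Commute d (e * a * f))
    (h2 : Commute d a) : Commute d e ∧ Commute d f := by
  have h3 : Commute d (e * f) := by
    rw [← C.tau_mul_a]; exact h1.mul_right h2
  exact ⟨C.ot.comm_left_of_comm_mul hd C.he C.hf C.cef C.nef h3,
    C.ot.comm_right_of_comm_mul hd C.he C.hf C.cef C.nef h3⟩

lemma Ctx.tau_a (C : Ctx D e f a a' x b t) : Commute (e * a * f) a :=
  (C.cea.mul_left (Commute.refl a)).mul_left C.caf.symm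

lemma Ctx.tau_a' (C : Ctx D e f a a' x b t) : Commute (e * a * f) a' :=
  ((C.same e C.he C.cea).mul_left C.caa').mul_left (C.same f C.hf C.caf.symm)

lemma Ctx.tau_t (C : Ctx D e f a a' x b t) : Commute (e * a * f) t :=
  C.tfix _ C.tau_a C.tau_a' C.ctx

lemma cj_eq_of_comm {y t : G} (h : Commute y t) : t * y * t⁻¹ = y := by
  rw [← h.eq, mul_assoc, mul_inv_cancel, mul_one]

lemma cj_eq_of_comm' {y p : G} (hp : p * p = 1) (h : Commute y p) : p * y * p = y := by
  rw [← h.eq, mul_assoc, hp, mul_one]

/-- The property of commuting with `τ` and `a` is invariant under conjugation by `t`. -/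
lemma Ctx.P_inv (C : Ctx D e f a a' x b t) {d : G} (hd : d ∈ D) (h1 : Commute d (e * a * f))
    (h2 : Commute d a) :
    t * d * t⁻¹ ∈ D ∧ Commute (t * d * t⁻¹) (e * a * f) ∧ Commute (t * d * t⁻¹) a := by
  have hD1 : t * d * t⁻¹ ∈ D := C.ot.conj d hd t
  refine ⟨hD1, ?_, ?_⟩
  · have h3 := comm_cj t h1
    rwa [cj_eq_of_comm C.tau_t] at h3
  · have h3 := comm_cj t h2
    rw [C.tconj] at h3
    exact C.same' _ hD1 h3

/-- Step 2: a member commuting with `a` and `x` does not commute with `f`. -/
lemma Ctx.S2 (C : Ctx D e f a a' x b t) [Finite G] {β : G} (hβ : β ∈ D) (h1 : Commute β a) (h2 : Commute β x) :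
    ¬ Commute β f := by
  intro hf
  have hτ : (e * a * f) * (e * a * f) = 1 := by
    have h3 : Commute (e * a) f := C.cef.symm.symm.mul_left C.caf
    rw [mul_inv_of_comm (mul_inv_of_comm C.ie C.ia C.cea) C.if_ h3]
  have hne : ¬ Commute β e := fun h => C.far β hβ h h2
  rcases C.ot.tri hτ hβ with h3 | h3 | ⟨σ, hσσ, hσ1, hmem, hσp, hσd, hσy, hnt⟩
  · -- tangent
    apply hne
    refine C.ot.tan_comm hβ C.he ?_
    have h4 : e * a * f * β * (e * a * f) = e * β * e := by
      have hcaf : Commute (a * f) β := (h1.symm).mul_left hf.symm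
      calc e * a * f * β * (e * a * f) = e * ((a * f) * β) * (e * (a * f)) := by group
        _ = e * (β * (a * f)) * (e * (a * f)) := by rw [hcaf.eq]
        _ = e * β * ((a * f) * e * (a * f)) := by group
        _ = e * β * e := by
          have hae : Commute (a * f) e := C.cea.symm.mul_left C.cef.symm
          have h5 : (a * f) * e * (a * f) = e := by
            rw [hae.eq, mul_assoc, mul_inv_of_comm C.ia C.if_ C.caf, mul_one]
          rw [h5]
    rwa [h4] at h3
  · -- `τ ∈ D`
    refine C.far _ h3 ?_ C.ctx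
    exact ((Commute.refl e).mul_left C.cea.symm).mul_left C.cef.symm
  · -- central
    have hf1 : (e * a * f) * σ ∈ D := hmem
    have hcτ : Commute ((e * a * f) * σ) (e * a * f) := (Commute.refl _).mul_left hσp
    have hcx : Commute ((e * a * f) * σ) x := C.ctx.mul_left (hσy x C.ctx.symm h2.symm).symm
    have hca : Commute ((e * a * f) * σ) a :=
      C.tau_a.mul_left (hσy a C.tau_a.symm h1.symm).symm
    exact C.far _ hf1 (C.O hf1 hcτ hca).1 hcx

/-- F2: the key tangency. -/
lemma Ctx.F2 (C : Ctx D e f a a' x b t) [Finite G] {h β : G} (hh : h ∈ D) (hha : Commute h a)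
    (hhx : ¬ Commute h x) (hcomm : Commute h (t * h * t⁻¹))
    (hβ : β ∈ D) (cβa : Commute β a) (cβx : Commute β x) (hβh : ¬ Commute β h) :
    Commute β ((h * (t * h * t⁻¹)) * β * (h * (t * h * t⁻¹))) := by
  have hD := C.ot
  have hih : h * h = 1 := hD.inv h hh
  set c := h * β * h with hc
  have hcD : c ∈ D := hD.cj hih hβ
  have cca : Commute c a := (comm_cj_of hha.symm cβa.symm).symm
  have cca' : Commute c a' := C.same c hcD cca
  have cβa' : Commute β a' := C.same β hβ cβa
  have hcx : ¬ Commute c x := by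
    intro h1
    have h2 : (β * h) ^ 2 = β * c := by rw [hc, sq]; group
    have h3 : Commute x ((β * h) ^ 2) := by
      rw [h2]; exact cβx.symm.mul_right h1.symm
    have hodd : Odd (orderOf (β * h)) := by
      rcases hD.pair β hβ h hh with h4 | h4
      · exact absurd h4 hβh
      · exact h4
    have h5 : Commute x (β * h) := comm_of_sq hodd h3
    have h6 := cβx.symm.mul_right h5
    rw [← mul_assoc, hD.inv β hβ, one_mul] at h6
    exact hhx h6.symm
  have hβc : ¬ Commute β c := fun h1 => hβh (hD.tan_comm hβ hh h1)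
  -- the central case for a twin `i` of `a`
  have central : ∀ i ∈ D, Commute c i → Commute β i → Commute i a → Commute i a' → ¬ Commute i x →
      (∀ d ∈ D, Commute d i → Commute d a ∧ Commute d a') → (∀ d ∈ D, Commute d a' → Commute d i) →
      ¬ Commute x ((c * i) * x * (c * i)) → Commute (t * c * t⁻¹) c := by
    intro i hi hci hβi hia hia' hix hs1 hs2 hnt
    have hpp : (c * i) * (c * i) = 1 := mul_inv_of_comm (hD.inv c hcD) (hD.inv i hi) hci
    have hne : c ≠ i := by
      rintro rfl
      exact hβc hβi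
    rcases hD.tri hpp C.hx with h1 | h1 | ⟨σ, hσσ, hσ1, hmem, hσp, hσd, hσy, hnt'⟩
    · exact absurd h1 hnt
    · exact absurd (hD.twin_comm hβ hi hcD hci.symm (by rw [← hci.eq]; exact h1) hβi) hβc
    · have hcp : Commute ((c * i) * σ) (c * i) := (Commute.refl _).mul_left hσp
      have hc1c := hD.comm_left_of_comm_mul hmem hcD hi hci hne hcp
      have hc1i := hD.comm_right_of_comm_mul hmem hcD hi hci hne hcp
      obtain ⟨hc1a, hc1a'⟩ := hs1 _ hmem hc1i
      set c₁ := (c * i) * σ with hc₁
      have hσeq : σ = c * i * c₁ := by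
        rw [hc₁, ← mul_assoc, hpp, one_mul]
      have hσa : Commute σ a := by rw [hσeq]; exact (cca.mul_left hia).mul_left hc1a
      have hσa' : Commute σ a' := by rw [hσeq]; exact (cca'.mul_left hia').mul_left hc1a'
      have hσt : Commute σ t := C.tfix σ hσa hσa' hσd
      have hcσ : Commute c σ := by
        rw [hσeq]; exact ((Commute.refl c).mul_right hci).mul_right hc1c.symm
      set d := t * c * t⁻¹ with hd
      have hdD : d ∈ D := hD.conj c hcD t
      have hdσ : Commute d σ := by
        have h3 := comm_cj t hcσ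
        rwa [cj_eq_of_comm hσt] at h3
      have hda' : Commute d a' := by
        have h3 := comm_cj t cca
        rwa [C.tconj] at h3
      have hdi : Commute d i := hs2 d hdD hda'
      have hcc1 : c * c₁ = σ * i := by
        rw [hσeq]
        calc c * c₁ = c * c₁ * (i * i) := by rw [hD.inv i hi, mul_one]
          _ = c * (c₁ * i) * i := by group
          _ = c * (i * c₁) * i := by rw [hc1i.eq]
          _ = c * i * c₁ * i := by group
      have hdcc : Commute d (c * c₁) := by
        rw [hcc1]; exact hdσ.mul_right hdi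
      have hne1 : c ≠ c₁ := by
        intro h3
        apply hix
        have h4 : σ = i := by
          rw [hσeq, ← h3]
          calc c * i * c = (c * c) * i := by rw [mul_assoc, hci.symm.eq, ← mul_assoc]
            _ = i := by rw [hD.inv c hcD, one_mul]
        rw [← h4]; exact hσd
      exact hD.comm_left_of_comm_mul hdD hcD hmem hc1c.symm hne1 hdcc
  -- one of the twins `a, a'` is not tangent
  have hcc : Commute (t * c * t⁻¹) c := by
    by_cases h1 : Commute x ((c * a) * x * (c * a))
    · by_cases h2 : Commute x ((c * a') * x * (c * a'))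
      · exfalso
        have h3 := hD.tangent (p := c * a) (q := c * a') C.hx C.haa'
          (mul_inv_of_comm (hD.inv c hcD) C.ia cca)
          (mul_inv_of_comm (hD.inv c hcD) (hD.inv a' C.ha') cca')
          (((Commute.refl c).mul_right cca').mul_left ((cca.symm).mul_right C.caa')) ?_ h1 h2
        · exact C.nax (hD.comm_left_of_comm_mul C.hx C.ha C.ha' C.caa' C.naa' h3).symm
        · calc (c * a) * (c * a') = c * (a * c) * a' := by group
            _ = c * (c * a) * a' := by rw [← cca.eq]
            _ = (c * c) * (a * a') := by group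
            _ = a * a' := by rw [hD.inv c hcD, one_mul]
      · refine central a' C.ha' cca' cβa' C.caa'.symm (Commute.refl a') ?_ ?_ ?_ h2
        · exact fun h3 => C.nax ((C.same' x C.hx h3.symm).symm)
        · exact fun d hd h3 => ⟨C.same' d hd h3, h3⟩
        · exact fun d hd h3 => h3
    · refine central a C.ha cca cβa (Commute.refl a) C.caa' C.nax ?_ ?_ h1
      · exact fun d hd h3 => ⟨h3, C.same d hd h3⟩
      · exact fun d hd h3 => C.same' d hd h3
  -- unwinding
  have hβt : Commute β t := C.tfix β cβa cβa' cβx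
  have h1 : t * c * t⁻¹ = (t * h * t⁻¹) * β * (t * h * t⁻¹) := by
    rw [hc]
    calc t * (h * β * h) * t⁻¹ = (t * h * t⁻¹) * (t * β * t⁻¹) * (t * h * t⁻¹) := by group
      _ = (t * h * t⁻¹) * β * (t * h * t⁻¹) := by rw [cj_eq_of_comm hβt]
  rw [h1] at hcc
  have h2 := comm_cj' hih hcc
  have h3 : h * ((t * h * t⁻¹) * β * (t * h * t⁻¹)) * h
      = (h * (t * h * t⁻¹)) * β * (h * (t * h * t⁻¹)) := by
    calc h * ((t * h * t⁻¹) * β * (t * h * t⁻¹)) * h
        = h * (t * h * t⁻¹) * β * ((t * h * t⁻¹) * h) := by group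
      _ = _ := by rw [← hcomm.eq]
  have h4 : h * c * h = β := by
    rw [hc]
    calc h * (h * β * h) * h = (h * h) * β * (h * h) := by group
      _ = β := by rw [hih, one_mul, mul_one]
  rw [h3, h4] at h2
  exact h2.symm

/-- Claim A: the product `h * h^t` is trivial or tangent to `x`. -/
lemma Ctx.claimA (C : Ctx D e f a a' x b t) [Finite G] {h k : G} (hh : h ∈ D) (hk : k ∈ D)
    (cha : Commute h a) (cka : Commute k a) (chk : Commute h k) (hne : a ≠ k)
    (heq : h * a * k = e * a * f) (che : Commute h e)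
    (hch : ∀ d ∈ D, Commute d e → Commute d f → Commute d h)
    (hck : ∀ d ∈ D, Commute d e → Commute d f → Commute d k)
    (hce : ∀ d ∈ D, Commute d h → Commute d k → Commute d e)
    (hhx : ¬ Commute h x)
    (hopp : ∀ β ∈ D, Commute β a → Commute β x → ¬ Commute β h) :
    h * (t * h * t⁻¹) = 1 ∨ Commute x ((h * (t * h * t⁻¹)) * x * (h * (t * h * t⁻¹))) := by
  have hD := C.ot
  have hih : h * h = 1 := hD.inv h hh
  have hhτ : Commute h (e * a * f) := by
    rw [← heq]; exact ((Commute.refl h).mul_right cha).mul_right chk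
  obtain ⟨h1D, h1τ, h1a⟩ := C.P_inv hh hhτ cha
  obtain ⟨h1e, h1f⟩ := C.O h1D h1τ h1a
  have h1h : Commute (t * h * t⁻¹) h := hch _ h1D h1e h1f
  have h1k : Commute (t * h * t⁻¹) k := hck _ h1D h1e h1f
  obtain ⟨h2D, h2τ, h2a⟩ := C.P_inv h1D h1τ h1a
  obtain ⟨h2e, h2f⟩ := C.O h2D h2τ h2a
  have h2h : Commute (t * (t * h * t⁻¹) * t⁻¹) h := hch _ h2D h2e h2f
  have h1h2 : Commute (t * h * t⁻¹) (t * (t * h * t⁻¹) * t⁻¹) := comm_cj t h1h.symm
  have hF2 : ∀ β ∈ D, Commute β a → Commute β x →
      Commute β ((h * (t * h * t⁻¹)) * β * (h * (t * h * t⁻¹))) :=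
    fun β hβ h3 h4 => C.F2 hh cha hhx h1h.symm hβ h3 h4 (hopp β hβ h3 h4)
  have htt : t * (t * h * t⁻¹) * t⁻¹ = h → t * h * t⁻¹ = h := by
    intro h3
    have h4 : Commute h (t ^ 2) := by
      rw [sq]
      show h * (t * t) = (t * t) * h
      calc h * (t * t) = (t * (t * h * t⁻¹) * t⁻¹) * (t * t) := by rw [h3]
        _ = (t * t) * h := by group
    exact cj_eq_of_comm (comm_of_sq C.todd h4)
  generalize ht2 : t * (t * h * t⁻¹) * t⁻¹ = h₂ at *
  generalize ht1 : t * h * t⁻¹ = h₁ at *
  have hRR : (h * h₁) * (h * h₁) = 1 := mul_inv_of_comm hih (hD.inv h₁ h1D) h1h.symm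
  by_cases hR : h * h₁ = 1
  · exact Or.inl hR
  right
  have nh : h ≠ h₁ := by
    rintro rfl
    exact hR hih
  have hF := hF2 b C.hb C.cba C.cbx
  rcases hD.tri hRR C.hx with h3 | h3 | ⟨σ, hσσ, hσ1, hmem, hσp, hσd, hσy, hnt⟩
  · exact h3
  · exact absurd (hD.comm_left_of_comm_mul C.hb hh h1D h1h.symm nh (hD.tan_comm C.hb h3 hF))
      (hopp b C.hb C.cba C.cbx)
  exfalso
  have hsR : Commute ((h * h₁) * σ) (h * h₁) := (Commute.refl _).mul_left hσp
  have csh := hD.comm_left_of_comm_mul hmem hh h1D h1h.symm nh hsR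
  have csh1 := hD.comm_right_of_comm_mul hmem hh h1D h1h.symm nh hsR
  generalize hs : (h * h₁) * σ = s at *
  have hiss : s * s = 1 := hD.inv s hmem
  have hσeq : σ = (h * h₁) * s := by rw [← hs, ← mul_assoc, hRR, one_mul]
  have hReq : s * σ = h * h₁ := by rw [← hs, mul_assoc, hσσ, mul_one]
  have hσs : Commute σ s := by
    rw [hσeq]; exact ((csh.symm.mul_left csh1.symm)).mul_left (Commute.refl s)
  have hReq' : σ * s = h * h₁ := by rw [hσs.eq, hReq]
  have nsx : ¬ Commute s x := by
    intro h4
    apply hnt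
    have h5 : Commute (h * h₁) x := by rw [← hReq]; exact h4.mul_left hσd
    exact comm_cj_of h5.symm (Commute.refl x)
  -- closure: `s` commutes with `a` and `k`
  have hAA : (a * k) * (a * k) = 1 := mul_inv_of_comm C.ia (hD.inv k hk) cka.symm
  have hw : Commute ((e * a * f) * σ) x := C.ctx.mul_left hσd
  have hweq : (e * a * f) * σ = h₁ * ((a * k) * s) := by
    rw [← heq, hσeq]
    have h4 : Commute h (a * k) := cha.mul_right chk
    have h5 : Commute h₁ (a * k) := h1a.mul_right h1k
    calc h * a * k * (h * h₁ * s) = (h * (a * k)) * h * (h₁ * s) := by group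
      _ = ((a * k) * h) * h * (h₁ * s) := by rw [h4.eq]
      _ = (a * k) * (h * h) * (h₁ * s) := by group
      _ = (h₁ * (a * k)) * s := by rw [hih, mul_one, ← mul_assoc, h5.eq]
      _ = h₁ * ((a * k) * s) := by group
  rw [hweq] at hw
  have h1g : Commute h₁ ((a * k) * s) := (h1a.mul_right h1k).mul_right csh1.symm
  have hsq : Commute x (((a * k) * s) ^ 2) := by
    have h4 : Commute ((h₁ * ((a * k) * s)) ^ 2) x := hw.pow_left 2
    rw [h1g.mul_pow, sq h₁, hD.inv h₁ h1D, one_mul] at h4
    exact h4.symm
  have hAs : Commute (a * k) s := by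
    rcases hD.tri hAA hmem with h5 | h5 | ⟨σ₀, h01, h02, hmem0, hσ0A, hσ0s, hσ0y, hnt0⟩
    · -- tangent
      have h6 : ((a * k) * s) ^ 2 = ((a * k) * s * (a * k)) * s := by rw [sq]; group
      rw [h6] at hsq
      by_cases h7 : (a * k) * s * (a * k) = s
      · show (a * k) * s = s * (a * k)
        calc (a * k) * s = (a * k) * s * (a * k) * (a * k) := by
              rw [mul_assoc ((a * k) * s), hAA, mul_one]
          _ = s * (a * k) := by rw [h7]
      · exact absurd (hD.comm_right_of_comm_mul C.hx (hD.cj hAA hmem) hmem h5.symm h7 hsq).symm nsx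
    · rcases hD.pair (a * k) h5 s hmem with h6 | h6
      · exact h6
      · exfalso
        have h7 : (h₁ * ((a * k) * s)) ^ orderOf ((a * k) * s) = h₁ := by
          obtain ⟨m, hm⟩ := h6
          rw [h1g.mul_pow, pow_orderOf_eq_one, mul_one, hm, pow_succ, pow_mul, sq h₁,
            hD.inv h₁ h1D, one_pow, one_mul]
        have h8 : Commute h₁ x := by
          have h9 := hw.pow_left (orderOf ((a * k) * s))
          rwa [h7] at h9
        exact C.far h₁ h1D h1e h8
    · exfalso
      have hf3 : (a * k) * σ₀ * s = σ₀ * ((a * k) * s) := by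
        rw [← hσ0A.eq]; group
      have hσ0g : Commute σ₀ ((a * k) * s) := hσ0A.mul_right hσ0s
      have h6 : ((a * k) * σ₀ * s) ^ 2 = ((a * k) * s) ^ 2 := by
        rw [hf3, hσ0g.mul_pow, sq σ₀, h01, one_mul]
      have h7 : ((a * k) * s) ^ 2 ≠ 1 := by
        intro h8
        apply hnt0
        have h9 : (a * k) * s * (a * k) = s := by
          have h10 : (a * k) * s * ((a * k) * s) = 1 := by rw [← sq]; exact h8
          calc (a * k) * s * (a * k) = (a * k) * s * (a * k) * (s * s) := by rw [hiss, mul_one]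
            _ = ((a * k) * s * ((a * k) * s)) * s := by group
            _ = s := by rw [h10, one_mul]
        rw [h9]
      rcases hD.pair ((a * k) * σ₀) hmem0 s hmem with h8 | h8
      · apply h7
        rw [← h6, h8.mul_pow, sq, sq, hD.inv _ hmem0, hiss, one_mul]
      · have h9 : Commute x (((a * k) * σ₀) * s) := by
          refine comm_of_sq h8 ?_
          rw [h6]; exact hsq
        have h10 : ((a * k) * σ₀) * s ≠ 1 := by
          intro h11
          apply h7
          rw [← h6, h11, one_pow]
        have h11 := hD.comm_of_rot C.hx hmem0 hmem h9 h8 h10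
        have h12 := h11.mul_right h9
        rw [← mul_assoc, hD.inv _ hmem0, one_mul] at h12
        exact nsx h12.symm
  have hsa : Commute s a := hD.comm_left_of_comm_mul hmem C.ha hk cka.symm hne hAs.symm
  have hsk : Commute s k := hD.comm_right_of_comm_mul hmem C.ha hk cka.symm hne hAs.symm
  have hse : Commute s e := hce s hmem csh hsk
  have hσa : Commute σ a := by
    rw [hσeq]; exact (cha.mul_left h1a).mul_left hsa
  have hσa' : Commute σ a' := by
    rw [hσeq]
    exact ((C.same h hh cha).mul_left (C.same h₁ h1D h1a)).mul_left (C.same s hmem hsa)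
  have hσt : Commute σ t := C.tfix σ hσa hσa' hσd
  have hσe : Commute σ e := by
    rw [hσeq]; exact (che.mul_left h1e).mul_left hse
  -- `s` commutes with `b`
  have hsb : Commute s b := by
    rcases hD.tri hσσ C.hb with h5 | h5 | ⟨σ₁, h11, h12, hmem1, hσ1p, hσ1d, hσ1y, hnt1⟩
    · by_contra hnsb
      have hnsb' : ¬ Commute b s := fun h6 => hnsb h6.symm
      have hodd : Odd (orderOf (b * s)) := by
        rcases hD.pair b C.hb s hmem with h6 | h6
        · exact absurd h6 hnsb'
        · exact h6
      have hRb : (h * h₁) * b * (h * h₁) = s * (σ * b * σ) * s := by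
        calc (h * h₁) * b * (h * h₁) = (s * σ) * b * (σ * s) := by rw [hReq, hReq']
          _ = s * (σ * b * σ) * s := by group
      rw [hRb] at hF
      have h6 := comm_cj' hiss hF
      have h7 : s * (s * (σ * b * σ) * s) * s = σ * b * σ := by
        calc s * (s * (σ * b * σ) * s) * s = (s * s) * (σ * b * σ) * (s * s) := by group
          _ = σ * b * σ := by rw [hiss, one_mul, mul_one]
      rw [h7] at h6
      have h8 : Commute (σ * b * σ) (b * (s * b * s)) := h5.symm.mul_right h6.symm
      have h9 : (b * s) ^ 2 = b * (s * b * s) := by rw [sq]; group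
      rw [← h9] at h8
      have h10 : Commute (σ * b * σ) (b * s) := comm_of_sq hodd h8
      have h11 := h5.symm.mul_right h10
      rw [← mul_assoc, hD.inv b C.hb, one_mul] at h11
      have h12 := comm_cj' hσσ h11
      have h13 : σ * (σ * b * σ) * σ = b := by
        calc σ * (σ * b * σ) * σ = (σ * σ) * b * (σ * σ) := by group
          _ = b := by rw [hσσ, one_mul, mul_one]
      have h14 : σ * s * σ = s := by
        rw [hσs.eq, mul_assoc, hσσ, mul_one]
      rw [h13, h14] at h12
      exact absurd h12 hnsb'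
    · exact (C.far σ h5 hσe hσd).elim
    · exfalso
      have hfσ : Commute (σ * σ₁) σ := (Commute.refl σ).mul_left hσ1p
      have hxσ1 : Commute x σ₁ := hσ1y x hσd.symm C.cbx.symm
      have haσ1 : Commute a σ₁ := hσ1y a hσa.symm C.cba.symm
      have hfx : Commute (σ * σ₁) x := hσd.mul_left hxσ1.symm
      have hfa : Commute (σ * σ₁) a := hσa.mul_left haσ1.symm
      have hop := hopp _ hmem1 hfa hfx
      have h6 := hF2 _ hmem1 hfa hfx
      have hRf : (h * h₁) * (σ * σ₁) * (h * h₁) = s * (σ * σ₁) * s := by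
        calc (h * h₁) * (σ * σ₁) * (h * h₁) = (s * σ) * (σ * σ₁) * (σ * s) := by rw [hReq, hReq']
          _ = s * (σ * (σ * σ₁) * σ) * s := by group
          _ = s * (σ * σ₁) * s := by
            have h9 : σ * (σ * σ₁) * σ = σ * σ₁ := by
              rw [← mul_assoc σ σ σ₁, hσσ, one_mul, hσ1p.eq]
            rw [h9]
      rw [hRf] at h6
      have h7 := hD.tan_comm hmem1 hmem h6
      have h8 : Commute (σ * σ₁) (h * h₁) := by
        rw [← hReq']; exact hfσ.mul_right h7
      exact hop (hD.comm_left_of_comm_mul hmem1 hh h1D h1h.symm nh h8)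
  -- `t` centralizes `R b R`
  have hbt : Commute b t := C.tfix b C.cba (C.same b C.hb C.cba) C.cbx
  have hRb2 : (h * h₁) * b * (h * h₁) = σ * b * σ := by
    calc (h * h₁) * b * (h * h₁) = (σ * s) * b * (s * σ) := by rw [hReq, hReq']
      _ = σ * (s * b) * (s * σ) := by group
      _ = σ * (b * s) * (s * σ) := by rw [hsb.eq]
      _ = σ * b * (s * s) * σ := by group
      _ = σ * b * σ := by rw [hiss, mul_one]
  have htRb : Commute ((h * h₁) * b * (h * h₁)) t := by
    rw [hRb2]; exact (hσt.mul_left hbt).mul_left hσt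
  have hR' : t * (h * h₁) * t⁻¹ = h₁ * h₂ := by
    rw [← ht2, ← ht1]; group
  have hE : (h₁ * h₂) * b * (h₁ * h₂) = (h * h₁) * b * (h * h₁) := by
    have h4 : t * ((h * h₁) * b * (h * h₁)) * t⁻¹ = (h₁ * h₂) * b * (h₁ * h₂) := by
      rw [← hR']
      calc t * ((h * h₁) * b * (h * h₁)) * t⁻¹
          = (t * (h * h₁) * t⁻¹) * (t * b * t⁻¹) * (t * (h * h₁) * t⁻¹) := by group
        _ = _ := by rw [cj_eq_of_comm hbt]
    rw [← h4, cj_eq_of_comm htRb]
  have hR'R' : (h₁ * h₂) * (h₁ * h₂) = 1 :=
    mul_inv_of_comm (hD.inv h₁ h1D) (hD.inv h₂ h2D) h1h2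
  have hcomm : Commute b (h * h₂) := by
    have h4 : (h * h₁) * (h₁ * h₂) = h * h₂ := by
      calc (h * h₁) * (h₁ * h₂) = h * (h₁ * h₁) * h₂ := by group
        _ = h * h₂ := by rw [hD.inv h₁ h1D, mul_one]
    rw [← h4]
    show b * ((h * h₁) * (h₁ * h₂)) = ((h * h₁) * (h₁ * h₂)) * b
    calc b * ((h * h₁) * (h₁ * h₂))
        = (h * h₁) * ((h * h₁) * b * (h * h₁)) * (h₁ * h₂) := by
          calc b * ((h * h₁) * (h₁ * h₂))
              = 1 * b * 1 * ((h * h₁) * (h₁ * h₂)) := by group
            _ = ((h * h₁) * (h * h₁)) * b * ((h * h₁) * (h * h₁)) * ((h * h₁) * (h₁ * h₂)) := by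
                rw [hRR]
            _ = (h * h₁) * ((h * h₁) * b * (h * h₁)) * ((h * h₁) * ((h * h₁) * (h₁ * h₂))) := by group
            _ = (h * h₁) * ((h * h₁) * b * (h * h₁)) * (h₁ * h₂) := by
                rw [← mul_assoc (h * h₁) (h * h₁) (h₁ * h₂), hRR, one_mul]
      _ = (h * h₁) * ((h₁ * h₂) * b * (h₁ * h₂)) * (h₁ * h₂) := by rw [hE]
      _ = (h * h₁) * (h₁ * h₂) * b * ((h₁ * h₂) * (h₁ * h₂)) := by group
      _ = (h * h₁) * (h₁ * h₂) * b := by rw [hR'R', mul_one]
  by_cases h22 : h = h₂
  · exact nh (htt h22.symm).symm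
  · exact (hopp b C.hb C.cba C.cbx) (hD.comm_left_of_comm_mul C.hb hh h2D h2h.symm h22 hcomm)

end

/-- Every member has a twin partner. -/
def HasTwins (D : Set G) : Prop := ∀ g ∈ D, ∃ g' ∈ D, Commute g g' ∧ g ≠ g' ∧ g * g' ∈ D

theorem no_far_aux [Finite G] (hD : OT D) (htw : HasTwins D) {e x a b : G}
    (he : e ∈ D) (hx : x ∈ D) (ha : a ∈ D) (hb : b ∈ D)
    (cae : Commute a e) (cab : Commute a b) (cbx : Commute b x)
    (far : ∀ c ∈ D, Commute c e → Commute c x → False)
    (hnt : ¬ Commute x ((e * a) * x * (e * a))) : False := by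
  have nax : ¬ Commute a x := fun h => far a ha cae h
  have nbe : ¬ Commute b e := fun h => far b hb h cbx
  have nex : ¬ Commute e x := fun h => far e he (Commute.refl e) h
  have nea : e ≠ a := by
    rintro rfl
    exact nbe cab.symm
  have hia := hD.inv a ha
  have hie := hD.inv e he
  have hpp : (e * a) * (e * a) = 1 := mul_inv_of_comm hie hia cae.symm
  rcases hD.tri hpp hx with h1 | h1 | ⟨τ, hττ, hτ1, hmem, hτp, hτx, hτy, _⟩
  · exact hnt h1
  · exact nbe (hD.twin_comm hb ha he cae (by rw [cae.eq]; exact h1) cab.symm)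
  have hfp : Commute ((e * a) * τ) (e * a) := (Commute.refl _).mul_left hτp
  have cfe := hD.comm_left_of_comm_mul hmem he ha cae.symm nea hfp
  have cfa := hD.comm_right_of_comm_mul hmem he ha cae.symm nea hfp
  generalize hfdef : (e * a) * τ = f at *
  have hτeq : τ = e * a * f := by
    rw [← hfdef, ← mul_assoc, hpp, one_mul]
  have nef : e ≠ f := by
    intro h3
    apply nax
    have h4 : τ = a := by
      rw [hτeq, ← h3]
      calc e * a * e = (a * e) * e := by rw [cae.symm.eq]
        _ = a := by rw [mul_assoc, hie, mul_one]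
    rw [← h4]; exact hτx
  have naf : a ≠ f := by
    intro h3
    apply nex
    have h4 : τ = e := by
      rw [hτeq, ← h3, mul_assoc, hia, mul_one]
    rw [← h4]; exact hτx
  have ctx : Commute (e * a * f) x := by rw [← hτeq]; exact hτx
  obtain ⟨a', ha', caa', naa', haa'⟩ := htw a ha
  have same : ∀ c ∈ D, Commute c a → Commute c a' :=
    fun c hc h => hD.twin_comm hc ha ha' caa' haa' h
  have same' : ∀ c ∈ D, Commute c a' → Commute c a :=
    fun c hc h => hD.twin_comm hc ha' ha caa'.symm (by rw [← caa'.eq]; exact haa') h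
  have na'x : ¬ Commute a' x := fun h => nax (same' x hx h.symm).symm
  have hodd : Odd (orderOf (x * a)) := by
    rcases hD.pair x hx a ha with h | h
    · exact absurd h.symm nax
    · exact h
  have hodd' : Odd (orderOf (x * a')) := by
    rcases hD.pair x hx a' ha' with h | h
    · exact absurd h.symm na'x
    · exact h
  obtain ⟨w, hwD, hwa, hww, hwy⟩ := hD.swap ha hx hodd
  obtain ⟨w', hwD', hwa', hww', hwy'⟩ := hD.swap ha' hx hodd'
  have htinv : (w' * w)⁻¹ = w * w' := by rw [mul_inv_rev, inv_of hww, inv_of hww']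
  have htconj : (w' * w) * a * (w' * w)⁻¹ = a' := by
    rw [htinv]
    calc w' * w * a * (w * w') = w' * (w * a * w) * w' := by group
      _ = w' * (w' * a' * w') * w' := by rw [hwa, hwa']
      _ = (w' * w') * a' * (w' * w') := by group
      _ = a' := by rw [hww', one_mul, mul_one]
  have htfix : ∀ y, Commute y a → Commute y a' → Commute y x → Commute y (w' * w) :=
    fun y h1 h2 h3 => (hwy' y h2 h3).mul_right (hwy y h1 h3)
  have htodd : Odd (orderOf (w' * w)) := by
    rcases hD.pair w' hwD' w hwD with h | h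
    · exfalso
      have htt : (w' * w) * (w' * w) = 1 := mul_inv_of_comm hww' hww h
      have hne : w' ≠ w := by
        rintro rfl
        apply naa'
        rw [htinv, hww] at htconj
        simpa using htconj
      have h1 : (w' * w) * a * (w' * w) = a' := by
        rw [← inv_of htt]; rw [inv_of htt]
        have := htconj
        rwa [inv_of htt] at this
      have h2 : (w' * w) * a' * (w' * w) = a := by
        rw [← h1]
        calc (w' * w) * ((w' * w) * a * (w' * w)) * (w' * w)
            = ((w' * w) * (w' * w)) * a * ((w' * w) * (w' * w)) := by group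
          _ = a := by rw [htt, one_mul, mul_one]
      have h3 : Commute (a * a') (w' * w) := by
        show (a * a') * (w' * w) = (w' * w) * (a * a')
        calc (a * a') * (w' * w) = (a' * a) * (w' * w) := by rw [caa'.eq]
          _ = ((w' * w) * a * (w' * w)) * ((w' * w) * a' * (w' * w)) * (w' * w) := by rw [h1, h2]
          _ = (w' * w) * a * ((w' * w) * (w' * w)) * a' * ((w' * w) * (w' * w)) := by group
          _ = (w' * w) * (a * a') := by rw [htt]; group
      have h4 : Commute (a * a') w := hD.comm_right_of_comm_mul haa' hwD' hwD h hne h3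
      have h5 : Commute (a * a') a := (Commute.refl a).mul_left caa'.symm
      have h6 := comm_cj' hww h5
      rw [hwa, cj_eq_of_comm' hww h4] at h6
      exact nax (hD.comm_left_of_comm_mul hx ha ha' caa' naa' h6.symm).symm
    · exact h
  have C : Ctx D e f a a' x b (w' * w) :=
    { ot := hD, he := he, hf := hmem, ha := ha, ha' := ha', hx := hx, hb := hb, haa' := haa'
      cea := cae.symm, cef := cfe.symm, caf := cfa.symm, caa' := caa', nef := nef, naf := naf
      naa' := naa', far := far, ctx := ctx, same := same, same' := same', nax := nax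
      cba := cab.symm, cbx := cbx, tconj := htconj, tfix := htfix, todd := htodd }
  generalize (w' * w) = t at C
  have nfx : ¬ Commute f x := fun h => far f hmem cfe h
  have hτe : Commute e (e * a * f) :=
    ((Commute.refl e).mul_right cae.symm).mul_right cfe.symm
  have hτf : Commute f (e * a * f) :=
    (cfe.mul_right cfa).mul_right (Commute.refl f)
  obtain ⟨h1D, h1τ, h1a⟩ := C.P_inv he hτe cae.symm
  obtain ⟨h1e, h1f⟩ := C.O h1D h1τ h1a
  obtain ⟨f1D, f1τ, f1a⟩ := C.P_inv hmem hτf cfa
  obtain ⟨f1e, f1f⟩ := C.O f1D f1τ f1a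
  have hAe := C.claimA he hmem cae.symm cfa cfe.symm naf rfl (Commute.refl e)
    (fun d _ h _ => h) (fun d _ _ h => h) (fun d _ h _ => h) nex
    (fun β hβ h3 h4 h5 => far β hβ h5 h4)
  have heqf : f * a * e = e * a * f := by
    calc f * a * e = f * (a * e) := by group
      _ = (e * a) * f := by rw [cae.eq, (hfp : Commute f (e * a)).eq]
      _ = e * a * f := rfl
  have hAf := C.claimA hmem he cfa cae.symm cfe nea.symm heqf cfe
    (fun d _ _ h => h) (fun d _ h _ => h) (fun d _ _ h => h) nfx
    (fun β hβ h3 h4 => C.S2 hβ h3 h4)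
  -- the two products multiply to `a * a'`
  have hτt : Commute (e * a * f) t := C.tau_t
  have hfix : (t * e * t⁻¹) * a' * (t * f * t⁻¹) = e * a * f := by
    rw [← C.tconj]
    have h3 : t * (e * a * f) * t⁻¹ = e * a * f := cj_eq_of_comm hτt
    rw [← h3]; group
  have c11 : Commute (t * e * t⁻¹) (t * f * t⁻¹) := comm_cj t C.cef
  generalize (t * e * t⁻¹) = e₁ at *
  generalize (t * f * t⁻¹) = f₁ at *
  have ce1a' : Commute e₁ a' := same e₁ h1D h1a
  have cf1a' : Commute f₁ a' := same f₁ f1D f1a
  have hie1 := hD.inv e₁ h1D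
  have hif1 := hD.inv f₁ f1D
  have hif := hD.inv f hmem
  have hPP : (e * e₁) * (e * e₁) = 1 := mul_inv_of_comm hie hie1 h1e.symm
  have hQQ : (f * f₁) * (f * f₁) = 1 := mul_inv_of_comm hif hif1 f1f.symm
  have hPQc : Commute (e * e₁) (f * f₁) :=
    (Commute.mul_right cfe.symm f1e.symm).mul_left (Commute.mul_right h1f c11)
  have hef1 : e₁ * f₁ = (e * a * f) * a' := by
    rw [← hfix]
    calc e₁ * f₁ = e₁ * f₁ * (a' * a') := by rw [hD.inv a' ha', mul_one]
      _ = e₁ * (f₁ * a') * a' := by group
      _ = e₁ * (a' * f₁) * a' := by rw [cf1a'.eq]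
      _ = e₁ * a' * f₁ * a' := by group
  have hττ' : (e * a * f) * (e * a * f) = 1 := by rw [← hτeq]; exact hττ
  have hprod : (e * e₁) * (f * f₁) = a * a' := by
    calc (e * e₁) * (f * f₁) = e * (e₁ * f) * f₁ := by group
      _ = e * (f * e₁) * f₁ := by rw [h1f.eq]
      _ = (e * f) * (e₁ * f₁) := by group
      _ = ((e * a * f) * a) * ((e * a * f) * a') := by rw [hef1, C.tau_mul_a]
      _ = (e * a * f) * (a * (e * a * f)) * a' := by group
      _ = (e * a * f) * ((e * a * f) * a) * a' := by rw [C.tau_a.eq]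
      _ = ((e * a * f) * (e * a * f)) * a * a' := by group
      _ = a * a' := by rw [hττ', one_mul]
  have hbaa' : Commute b (a * a') := cab.symm.mul_right (same b hb cab.symm)
  have haa1 : a * a' ≠ 1 := by
    intro h3
    exact naa' (hD.eq_of_mul_eq_one ha' h3)
  rcases hAe with hP | hP
  · -- `P = 1`
    rw [hP, one_mul] at hprod
    have hne : f ≠ f₁ := by
      rintro rfl
      exact haa1 (by rw [← hprod]; exact hif)
    have h3 : Commute b (f * f₁) := by rw [hprod]; exact hbaa'
    exact C.S2 hb cab.symm cbx (hD.comm_left_of_comm_mul hb hmem f1D f1f.symm hne h3)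
  rcases hAf with hQ | hQ
  · -- `Q = 1`
    rw [hQ, mul_one] at hprod
    have hne : e ≠ e₁ := by
      rintro rfl
      exact haa1 (by rw [← hprod]; exact hie)
    have h3 : Commute b (e * e₁) := by rw [hprod]; exact hbaa'
    exact nbe (hD.comm_left_of_comm_mul hb he h1D h1e.symm hne h3)
  · have h3 := hD.tangent hx haa' hPP hQQ hPQc hprod hP hQ
    exact nax (hD.comm_left_of_comm_mul hx ha ha' caa' naa' h3).symm

/-- Any far pair at distance three is impossible. -/
theorem no_far [Finite G] (hD : OT D) (htw : HasTwins D) {e x a b : G}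
    (he : e ∈ D) (hx : x ∈ D) (ha : a ∈ D) (hb : b ∈ D)
    (cae : Commute a e) (cab : Commute a b) (cbx : Commute b x)
    (far : ∀ c ∈ D, Commute c e → Commute c x → False) : False := by
  obtain ⟨e', he', cee', nee', hee'⟩ := htw e he
  have hee'' : e' * e ∈ D := by rw [← cee'.eq]; exact hee'
  have same : ∀ c ∈ D, Commute c e → Commute c e' :=
    fun c hc h => hD.twin_comm hc he he' cee' hee' h
  have same' : ∀ c ∈ D, Commute c e' → Commute c e :=
    fun c hc h => hD.twin_comm hc he' he cee'.symm hee'' h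
  have far' : ∀ c ∈ D, Commute c e' → Commute c x → False :=
    fun c hc h1 h2 => far c hc (same' c hc h1) h2
  have hia := hD.inv a ha
  by_cases h1 : Commute x ((e * a) * x * (e * a))
  · by_cases h2 : Commute x ((e' * a) * x * (e' * a))
    · exfalso
      have cae' := same a ha cae
      have h3 := hD.tangent (p := e * a) (q := e' * a) hx hee'
        (mul_inv_of_comm (hD.inv e he) hia cae.symm)
        (mul_inv_of_comm (hD.inv e' he') hia cae'.symm)
        ((cee'.mul_right cae.symm).mul_left (cae'.mul_right (Commute.refl a))) ?_ h1 h2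
      · exact far x hx (hD.comm_left_of_comm_mul hx he he' cee' nee' h3) (Commute.refl x)
      · calc (e * a) * (e' * a) = e * (a * e') * a := by group
          _ = e * (e' * a) * a := by rw [cae'.eq]
          _ = e * e' * (a * a) := by group
          _ = e * e' := by rw [hia, mul_one]
    · exact no_far_aux hD htw he' hx ha hb (same a ha cae) cab cbx far' h2
  · exact no_far_aux hD htw he hx ha hb cae cab cbx far h1

end Cfsg.Agent.OddTrans
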